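import Cfsg.Agent.OrthGeo.RatForm

/-! Overgroups of an orthogonal subfield group without irrational root elements at rational points. -/

set_option autoImplicit false
set_option linter.unusedSectionVars false

namespace CfsgLib.OrthRat17

open Cfsg.Geo Module CfsgLib.OrthGeo
open scoped Matrix MatrixGroups

variable {ι : Type} [Fintype ι] [DecidableEq ι] {F : Type*} [Field F]
variable {F₀ : Subfield F} {Q : (ι → F) → F} {P : GL ι F}

/-- Every root element of `M` at a rational singular point is rational. -/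
def NoIrr (hR : QRat Q F₀ P) (M : Subgroup (GL ι F)) : Prop :=
  ∀ c a, QW F₀ P c → c ≠ 0 → Q c = 0 → bform hR.nondeg c a = 0 → EIn Q M c a →
    ∃ w, QW F₀ P w ∧ ∃ t : F, a = w + t • c

lemma b_span_zero (hQ : IsNondegenerateQuadraticForm Q) {k : ℕ} {S : Fin k → ι → F} {v y : ι → F}
    (hv : v ∈ Submodule.span F (Set.range S)) (h : ∀ j, bform hQ (S j) y = 0) : bform hQ v y = 0 := by
  induction hv using Submodule.span_induction with
  | mem z hz => obtain ⟨j, rfl⟩ := hz; exact h j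
  | zero => simp only [map_zero, LinearMap.zero_apply]
  | add u w _ _ hu hw => rw [map_add, LinearMap.add_apply, hu, hw, add_zero]
  | smul r u _ hu => rw [map_smul, LinearMap.smul_apply, hu, smul_zero]

lemma mulVec_ne_zero_gl {g : GL ι F} {v : ι → F} (hv : v ≠ 0) : (g : Matrix ι ι F) *ᵥ v ≠ 0 := fun h => hv (by
  have := inv_mulVec_cancel g v
  rwa [h, Matrix.mulVec_zero, eq_comm] at this)

lemma span_pair_range (x y : ι → F) : Set.range ![x, y] = {x, y} := by
  ext z; simp [Matrix.range_cons, Matrix.range_empty, or_comm]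

/-- A singular partner of a singular rational vector orthogonal to given rational vectors. -/
lemma exists_qw_partner [Finite F] (hR : QRat Q F₀ P) {k : ℕ} (v : Fin k → ι → F) {c : ι → F} (hv : ∀ j, QW F₀ P (v j)) (hc : QW F₀ P c)
    (hcv : c ∉ Submodule.span F (Set.range v)) (hcQ : Q c = 0) (hvc : ∀ j, bform hR.nondeg (v j) c = 0) :
    ∃ y, QW F₀ P y ∧ Q y = 0 ∧ (∀ j, bform hR.nondeg (v j) y = 0) ∧ bform hR.nondeg c y = 1 := by
  obtain ⟨y, hy, hyp, hcy⟩ := exists_qw_pair_one hR v hv hc hcv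
  refine ⟨y - Q y • c, hy.sub (hc.smul (hR.rat _ hy)), ?_, fun j => ?_, ?_⟩
  · rw [q_sub hR.nondeg, q_smul hR.nondeg, hcQ, map_smul, b_symm hR.nondeg y c, hcy, smul_eq_mul]; ring
  · rw [map_sub, map_smul, hyp j, hvc j, smul_zero, sub_zero]
  · rw [map_sub, map_smul, hcy, b_self_eq_zero hR.nondeg hcQ, smul_zero, sub_zero]

variable [Finite F] (hR : QRat Q F₀ P) (hn : 7 ≤ Fintype.card ι)
variable {M : Subgroup (GL ι F)} (hH : SubO Q F₀ P ≤ M) (hM : M ≤ omegaGL Q) (hno : NoIrr hR M)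
include hR hn hH hM

omit hH hn in
lemma isometry_of_mem {g : GL ι F} (hg : g ∈ M) : g ∈ Cfsg.isometryGroup F Q := omegaGL_le (hM hg)

lemma eIn_rational {u w : ι → F} (hu : QW F₀ P u) (hw : QW F₀ P w) (huQ : Q u = 0)
    (huw : bform hR.nondeg u w = 0) : EIn Q M u w :=
  (eIn_rat hR (by omega) hu hw huQ huw).mono hH

include hno

lemma image_line {g : GL ι F} (hg : g ∈ M) {c c' : ι → F} (hc : QW F₀ P c) (hc' : QW F₀ P c') (hc0 : c ≠ 0)
    (hcQ : Q c = 0) {l : F} (e : (g : Matrix ι ι F) *ᵥ c = l • c') {d : ι → F} (hd : QW F₀ P d)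
    (hcd : bform hR.nondeg c d = 0) :
    ∃ w, QW F₀ P w ∧ ∃ t : F, l • (g : Matrix ι ι F) *ᵥ d = w + t • c' := by
  have hgI := isometry_of_mem hR hM hg
  have hl0 : l ≠ 0 := fun h0 => mulVec_ne_zero_gl (g := g) hc0 (by rw [e, h0, zero_smul])
  have hc'0 : c' ≠ 0 := fun h0 => mulVec_ne_zero_gl (g := g) hc0 (by rw [e, h0, smul_zero])
  have hc'Q : Q c' = 0 := by
    have h := mem_isometryGroup.1 hgI c
    rw [e, q_smul hR.nondeg, hcQ] at h
    exact (mul_eq_zero.1 h).resolve_left (pow_ne_zero _ hl0)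
  have h1 := (eIn_rational hR hn hH hM hc hd hcQ hcd).conj hR.nondeg hcQ hcd hg hgI
  obtain ⟨r, hr, er⟩ := h1
  rw [e, eichlerMat_smul_left hR.nondeg] at er
  have hb : bform hR.nondeg ((g : Matrix ι ι F) *ᵥ c) ((g : Matrix ι ι F) *ᵥ d) = 0 := by
    rw [isometry_b hR.nondeg hgI, hcd]
  rw [e, map_smul, LinearMap.smul_apply] at hb
  exact hno c' _ hc' hc'0 hc'Q (by rw [map_smul]; exact hb) ⟨r, hr, er⟩

/-- The image of a rational singular vector orthogonal to `c`. -/
lemma image_singular {g : GL ι F} (hg : g ∈ M) {c c' : ι → F} (hc : QW F₀ P c) (hc' : QW F₀ P c') (hc0 : c ≠ 0)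
    (hcQ : Q c = 0) {l : F} (e : (g : Matrix ι ι F) *ᵥ c = l • c') {d : ι → F} (hd : QW F₀ P d) (hdQ : Q d = 0)
    (hcd : bform hR.nondeg c d = 0) (hdc : d ∉ Submodule.span F {c}) :
    ∃ w, QW F₀ P w ∧ (g : Matrix ι ι F) *ᵥ d = l • w := by
  have hgI := isometry_of_mem hR hM hg
  have hl0 : l ≠ 0 := fun h0 => mulVec_ne_zero_gl (g := g) hc0 (by rw [e, h0, zero_smul])
  have hcc : bform hR.nondeg c c = 0 := by rw [b_self hR.nondeg, hcQ, mul_zero]
  have hc'Q : Q c' = 0 := by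
    have h := mem_isometryGroup.1 hgI c
    rw [e, q_smul hR.nondeg, hcQ] at h
    exact (mul_eq_zero.1 h).resolve_left (pow_ne_zero _ hl0)
  have hc'c' : bform hR.nondeg c' c' = 0 := by rw [b_self hR.nondeg, hc'Q, mul_zero]
  obtain ⟨e', he', he'Q, -, hep, heN⟩ := exists_qw_singular hR ![c, d] ![c, d]
    (by simp [Fin.forall_fin_two, hc, hd]) (by simp [Fin.forall_fin_two, hc, hd]) (by omega)
  have hce : bform hR.nondeg c e' = 0 := hep 0
  have hde : bform hR.nondeg d e' = 0 := hep 1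
  rw [span_pair_range, Submodule.mem_span_pair] at heN
  obtain ⟨D, hD, s, eD⟩ := image_line hR hn hH hM hno hg hc hc' hc0 hcQ e hd hcd
  obtain ⟨E, hE, u, eE⟩ := image_line hR hn hH hM hno hg hc hc' hc0 hcQ e he' hce
  have eD' : D = l • (g : Matrix ι ι F) *ᵥ d - s • c' := by rw [eD]; abel
  have eE' : E = l • (g : Matrix ι ι F) *ᵥ e' - u • c' := by rw [eE]; abel
  have hpc : ∀ {x}, bform hR.nondeg c x = 0 → bform hR.nondeg c' ((g : Matrix ι ι F) *ᵥ x) = 0 := fun {x} hx => by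
    have h := (isometry_b hR.nondeg hgI c x).trans hx
    rw [e, map_smul, LinearMap.smul_apply] at h
    exact (mul_eq_zero.1 h).resolve_left hl0
  have hc'D : bform hR.nondeg c' D = 0 := by
    rw [eD', map_sub, map_smul, map_smul, hpc hcd, hc'c', smul_zero, smul_zero, sub_zero]
  have hc'E : bform hR.nondeg c' E = 0 := by
    rw [eE', map_sub, map_smul, map_smul, hpc hce, hc'c', smul_zero, smul_zero, sub_zero]
  have hDc' : bform hR.nondeg D c' = 0 := by rw [b_symm hR.nondeg, hc'D]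
  have hEc' : bform hR.nondeg E c' = 0 := by rw [b_symm hR.nondeg, hc'E]
  have hDQ : Q D = 0 := by
    have h : Q (D + s • c') = 0 := by rw [← eD, q_smul hR.nondeg, mem_isometryGroup.1 hgI, hdQ, mul_zero]
    rwa [q_add hR.nondeg, q_smul hR.nondeg, hc'Q, map_smul, hDc', mul_zero, smul_zero, add_zero, add_zero] at h
  have hEQ : Q E = 0 := by
    have h : Q (E + u • c') = 0 := by rw [← eE, q_smul hR.nondeg, mem_isometryGroup.1 hgI, he'Q, mul_zero]
    rwa [q_add hR.nondeg, q_smul hR.nondeg, hc'Q, map_smul, hEc', mul_zero, smul_zero, add_zero, add_zero] at h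
  have hDE : bform hR.nondeg D E = 0 := by
    have h : bform hR.nondeg (D + s • c') (E + u • c') = 0 := by
      simp only [← eD, ← eE, map_smul, LinearMap.smul_apply, isometry_b hR.nondeg hgI, hde, smul_zero]
    simpa [map_add, map_smul, hc'E, hDc', hc'c', -bform_apply] using h
  have hginj : ∀ {x}, (g : Matrix ι ι F) *ᵥ x = 0 → x = 0 := fun {x} hx => by
    by_contra h0; exact mulVec_ne_zero_gl h0 hx
  have hDN : ∀ α : F, D ≠ α • c' := fun α h => by
    have h1 := hginj (x := l • d - ((s + α) / l) • c) (by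
      rw [Matrix.mulVec_sub, Matrix.mulVec_smul, Matrix.mulVec_smul, e, smul_smul, div_mul_cancel₀ _ hl0, eD, h]
      module)
    refine hdc (Submodule.mem_span_singleton.2 ⟨((s + α) / l) / l, ?_⟩)
    calc (((s + α) / l) / l) • c = l⁻¹ • (((s + α) / l) • c) := by rw [smul_smul, div_eq_inv_mul]
      _ = d := by rw [← sub_eq_zero.1 h1, smul_smul, inv_mul_cancel₀ hl0, one_smul]
  have hEN : ∀ α β : F, E ≠ α • c' + β • D := fun α β h => by
    have h1 := hginj (x := l • e' - ((u + α - β * s) / l) • c - (β * l) • d) (by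
      rw [Matrix.mulVec_sub, Matrix.mulVec_sub, Matrix.mulVec_smul, Matrix.mulVec_smul, Matrix.mulVec_smul, e,
        smul_smul, div_mul_cancel₀ _ hl0, eE, h, mul_smul β l, eD]
      module)
    refine heN ⟨((u + α - β * s) / l) / l, β, ?_⟩
    rw [sub_sub, sub_eq_zero] at h1
    calc (((u + α - β * s) / l) / l) • c + β • d
        = l⁻¹ • (((u + α - β * s) / l) • c + (β * l) • d) := by
          rw [smul_add, smul_smul, smul_smul, ← div_eq_inv_mul, mul_comm β l, inv_mul_cancel_left₀ hl0]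
      _ = e' := by rw [← h1, smul_smul, inv_mul_cancel₀ hl0, one_smul]
  set k : F := l⁻¹ * l⁻¹ with hk
  have hdb : bform hR.nondeg d e' = 0 := hde
  obtain ⟨x, hx, ex⟩ := (eIn_rational hR hn hH hM hd he' hdQ hdb).conj hR.nondeg hdQ hdb hg hgI
  have egd : (g : Matrix ι ι F) *ᵥ d = l⁻¹ • (D + s • c') := by
    rw [← eD, smul_smul, inv_mul_cancel₀ hl0, one_smul]
  have ege : (g : Matrix ι ι F) *ᵥ e' = l⁻¹ • (E + u • c') := by
    rw [← eE, smul_smul, inv_mul_cancel₀ hl0, one_smul]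
  rw [egd, ege, eichlerMat_smul_left hR.nondeg, smul_smul, ← hk] at ex
  have hQw : Q (k • (E + u • c')) = 0 := by
    rw [← eE, smul_smul, q_smul hR.nondeg, mem_isometryGroup.1 hgI, he'Q, mul_zero]
  have hxy : ∀ y, (x : Matrix ι ι F) *ᵥ y = y + (k * (bform hR.nondeg E y + u * bform hR.nondeg c' y)) • (D + s • c')
      - (bform hR.nondeg D y + s * bform hR.nondeg c' y) • k • (E + u • c') := fun y => by
    rw [ex, eichlerMat_mulVec hR.nondeg, hQw]
    simp only [map_add, map_smul, LinearMap.add_apply, LinearMap.smul_apply, smul_eq_mul, zero_mul, zero_smul, sub_zero]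
  have hD0 : D ≠ 0 := fun h0 => hDN 0 (by rw [h0, zero_smul])
  have hc'0 : c' ≠ 0 := fun h0 => mulVec_ne_zero_gl (g := g) hc0 (by rw [e, h0, smul_zero])
  have hDD : bform hR.nondeg D D = 0 := by rw [b_self hR.nondeg, hDQ, mul_zero]
  have hxc : (x : Matrix ι ι F) *ᵥ c' = (1 : F) • c' := by
    rw [hxy, hEc', hc'c', hDc']; simp
  have hxD : (x : Matrix ι ι F) *ᵥ D = (1 : F) • D := by
    rw [hxy, b_symm hR.nondeg E D, hDE, hc'D, hDD]; simp
  obtain ⟨y, hy, hyp, hEy⟩ := exists_qw_pair_one hR ![D, c'] (c := E)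
    (by simp [Fin.forall_fin_two, hD, hc']) hE (by
      rw [span_pair_range, Submodule.mem_span_pair]
      rintro ⟨α, β, ht⟩
      exact hEN β α (by rw [← ht, add_comm]))
  have hDy : bform hR.nondeg D y = 0 := hyp 0
  have hc'y : bform hR.nondeg c' y = 0 := hyp 1
  obtain ⟨w₁, hw₁, t₁, ew₁⟩ := image_line hR hn hH hM hno hx hc' hc' hc'0 hc'Q hxc hy hc'y
  obtain ⟨w₂, hw₂, t₂, ew₂⟩ := image_line hR hn hH hM hno hx hD hD hD0 hDQ hxD hy hDy
  rw [one_smul, hxy, hEy, hc'y, hDy] at ew₁ ew₂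
  simp only [mul_zero, add_zero, mul_one, zero_smul, sub_zero] at ew₁ ew₂
  obtain ⟨g₁, hg₁, hg₁p, hDg₁⟩ := exists_qw_pair_one hR ![c'] (c := D) (by simp [hc']) hD (by
      simp only [Matrix.range_cons, Matrix.range_empty, Set.union_empty, Submodule.mem_span_singleton]
      rintro ⟨α, ht⟩
      exact hDN α ht.symm)
  have hk0 : k ∈ F₀ := by
    have h := congrArg (fun z => bform hR.nondeg z g₁) ew₁
    simp only [map_add, map_smul, LinearMap.add_apply, LinearMap.smul_apply, smul_eq_mul, hDg₁,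
      show bform hR.nondeg c' g₁ = 0 from hg₁p 0, mul_zero, add_zero, mul_one] at h
    rw [eq_sub_iff_add_eq'.2 h]
    exact F₀.sub_mem (qw_b_mem hR hw₁ hg₁) (qw_b_mem hR hy hg₁)
  obtain ⟨g₂, hg₂, hg₂p, hcg₂⟩ := exists_qw_pair_one hR ![D] (c := c') (by simp [hD]) hc' (by
      simp only [Matrix.range_cons, Matrix.range_empty, Set.union_empty, Submodule.mem_span_singleton]
      rintro ⟨α, ht⟩
      have hα : α ≠ 0 := fun h0 => hc'0 (by rw [← ht, h0, zero_smul])
      exact hDN α⁻¹ (by rw [← ht, smul_smul, inv_mul_cancel₀ hα, one_smul]))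
  have hks : k * s ∈ F₀ := by
    have h := congrArg (fun z => bform hR.nondeg z g₂) ew₂
    simp only [map_add, map_smul, LinearMap.add_apply, LinearMap.smul_apply, smul_eq_mul, hcg₂,
      show bform hR.nondeg D g₂ = 0 from hg₂p 0, mul_zero, add_zero, zero_add, mul_one] at h
    rw [eq_sub_iff_add_eq'.2 h]
    exact F₀.sub_mem (qw_b_mem hR hw₂ hg₂) (qw_b_mem hR hy hg₂)
  refine ⟨k • D + (k * s) • c', (hD.smul hk0).add (hc'.smul hks), ?_⟩
  rw [egd, hk]
  match_scalars <;> field_simp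

lemma image_perp {g : GL ι F} (hg : g ∈ M) {c c' : ι → F} (hc : QW F₀ P c) (hc' : QW F₀ P c') (hc0 : c ≠ 0)
    (hcQ : Q c = 0) {l : F} (e : (g : Matrix ι ι F) *ᵥ c = l • c') {v : ι → F} (hv : QW F₀ P v)
    (hcv : bform hR.nondeg c v = 0) : ∃ w, QW F₀ P w ∧ (g : Matrix ι ι F) *ᵥ v = l • w := by
  refine qw_singular_induction hR ![c] (by simp [hc]) (by omega)
    (fun x => ∃ w, QW F₀ P w ∧ (g : Matrix ι ι F) *ᵥ x = l • w) ?_ ?_ hv (by simp [Fin.forall_fin_one, hcv, -bform_apply])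
  · rintro x y - - ⟨a, ha, ea⟩ ⟨b, hb, eb⟩
    exact ⟨a + b, ha.add hb, by rw [Matrix.mulVec_add, ea, eb, smul_add]⟩
  · intro s hs hsQ hsc
    by_cases hm : s ∈ Submodule.span F {c}
    · obtain ⟨t, rfl⟩ := Submodule.mem_span_singleton.1 hm
      exact ⟨t • c', hc'.smul (qw_scalar_mem hs hc rfl hc0), by rw [Matrix.mulVec_smul, e, smul_comm]⟩
    · exact image_singular hR hn hH hM hno hg hc hc' hc0 hcQ e hs hsQ (hsc 0) hm

/-- An element moving a rational singular point to a rational point lies in the subfield group. -/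
lemma rational_of_qline {g : GL ι F} (hg : g ∈ M) {c c' : ι → F} (hc : QW F₀ P c) (hc' : QW F₀ P c') (hc0 : c ≠ 0)
    (hcQ : Q c = 0) {l : F} (e : (g : Matrix ι ι F) *ᵥ c = l • c') :
    g ∈ Cfsg.Geo.subfieldSubgroup F₀ P := by
  obtain ⟨d, hd, hdQ, hd0, hdp, hdN⟩ := exists_qw_singular hR ![c] ![c] (by simp [hc]) (by simp [hc]) (by omega)
  simp only [Matrix.range_cons, Matrix.range_empty, Set.union_empty] at hdN
  obtain ⟨wd, hwd, ed⟩ := image_singular hR hn hH hM hno hg hc hc' hc0 hcQ e hd hdQ (hdp 0) hdN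
  obtain ⟨y, hy, hyp, hcy⟩ := exists_qw_pair_one hR ![d] (c := c) (by simp [hd]) hc (by
    simp only [Matrix.range_cons, Matrix.range_empty, Set.union_empty]
    intro hm
    obtain ⟨t, ht⟩ := Submodule.mem_span_singleton.1 hm
    refine hdN (Submodule.mem_span_singleton.2 ⟨t⁻¹, ?_⟩)
    rw [← ht, smul_smul, inv_mul_cancel₀ (fun h0 => hc0 (by rw [← ht, h0, zero_smul])), one_smul])
  refine mem_qsubfield_of_lines fun v hv => ?_
  have hr := qw_b_mem hR hc hv
  obtain ⟨w₁, hw₁, e₁⟩ := image_perp hR hn hH hM hno hg hc hc' hc0 hcQ e (hv.sub (hy.smul hr))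
    (by rw [map_sub, map_smul, hcy, smul_eq_mul, mul_one, sub_self])
  obtain ⟨w₂, hw₂, e₂⟩ := image_perp hR hn hH hM hno hg hd hwd hd0 hdQ ed (hy.smul hr)
    (by rw [map_smul, show bform hR.nondeg d y = 0 from hyp 0, smul_zero])
  refine ⟨l, w₁ + w₂, hw₁.add hw₂, ?_⟩
  rw [smul_add, ← e₁, ← e₂, ← Matrix.mulVec_add, sub_add_cancel]

lemma preserves_of_fix_point {g : GL ι F} (hg : g ∈ M) {c : ι → F} (hc : QW F₀ P c) (hc0 : c ≠ 0) (hcQ : Q c = 0)
    (e : (g : Matrix ι ι F) *ᵥ c = c) : ∀ v, QW F₀ P v → QW F₀ P ((g : Matrix ι ι F) *ᵥ v) :=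
  preserves_of_qfix (rational_of_qline hR hn hH hM hno hg hc hc hc0 hcQ (l := 1) (by rw [e, one_smul])) hc hc0 e

end CfsgLib.OrthRat17
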